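import Cfsg.Agent.Rudvalis.Tits
import Cfsg.Prelude.Def_Sporadic
import Cfsg.Prelude.Def_Exceptional

/-!
`Ru` as a permutation group of degree 4060 with a Tits group in a point stabiliser.
-/

set_option autoImplicit false
set_option maxRecDepth 100000

namespace CfsgLib.Rudvalis

open CfsgLib.RuLattice Cfsg Cfsg.Spor

theorem G2_center_trivial (g : G 2) (h : g.1 ∈ Subgroup.center fourRu) : g = 1 := by
  obtain ⟨u, hu, e⟩ := central_iff h
  have h1 := gens_fix (k := 2) (by norm_num) (j := 1) (by norm_num) g.2 (basePt_lt 1)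
  rw [lab_succ, lab_succ, e, moved_iPow] at h1
  have hb : basePt 1 = 0 := rfl
  simp only [hb] at h1
  have : u = 0 := by omega
  exact Subtype.ext (by rw [e, this, pow_zero]; rfl)

/-- The first class, fixed. -/
theorem G2_fixes_zero (g : G 2) : clsMoved g.1 (0 : Cls) = 0 :=
  Fin.ext (gens_fix (k := 2) (by norm_num) (j := 0) (by norm_num) g.2 (basePt_lt 0))

theorem ruHom_surj_range : Function.Bijective ruHom.rangeRestrict :=
  ⟨fun _ _ h => ruHom_injective (congrArg Subtype.val h), ruHom.rangeRestrict_surjective⟩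

theorem permutation_model : ∃ H : Subgroup (Equiv.Perm (Fin 4060)), Cfsg.IsRu H ∧
    MulAction.IsPretransitive H (Fin 4060) ∧
    Nat.card (MulAction.stabilizer H (0 : Fin 4060)) = 35942400 ∧
    ∃ T : Subgroup (MulAction.stabilizer H (0 : Fin 4060)), Cfsg.IsTits T := by
  classical
  haveI : Finite fourRu := Finite.of_injective _ permHom_injective
  let e : Spor.Ru ≃* ruHom.range := MulEquiv.ofBijective ruHom.rangeRestrict ruHom_surj_range
  have htrans : MulAction.IsPretransitive ruHom.range (Fin 4060) := by
    haveI := pretransitive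
    refine ⟨fun a b => ?_⟩
    obtain ⟨x, hx⟩ := MulAction.exists_smul_eq Spor.Ru a b
    exact ⟨e x, hx⟩
  refine ⟨ruHom.range, ⟨?_, ?_⟩, htrans, ?_, ?_⟩
  · exact (MulEquiv.isSimpleGroup_congr e).1 isSimple
  · rw [← Nat.card_congr e.toEquiv, card_Ru]
  · haveI := htrans
    have h1 := MulAction.index_stabilizer_of_transitive ruHom.range (0 : Fin 4060)
    have h2 := (MulAction.stabilizer ruHom.range (0 : Fin 4060)).card_mul_index
    rw [h1, Nat.card_fin, ← Nat.card_congr e.toEquiv, card_Ru] at h2
    exact Nat.eq_of_mul_eq_mul_right (by norm_num : 0 < 4060) (h2.trans (by norm_num))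
  · let f : G 2 →* MulAction.stabilizer ruHom.range (0 : Fin 4060) :=
      (e.toMonoidHom.comp ((QuotientGroup.mk' _).comp (G 2).subtype)).codRestrict _ fun g =>
        MulAction.mem_stabilizer_iff.2 (G2_fixes_zero g)
    have hf : Function.Injective f := by
      rw [injective_iff_map_eq_one]
      intro g hg
      refine G2_center_trivial g ((QuotientGroup.eq_one_iff g.1).1 (e.injective ?_))
      rw [map_one]
      exact congrArg Subtype.val hg
    refine ⟨f.range, ?_, ?_⟩
    · exact (MulEquiv.isSimpleGroup_congr (MonoidHom.ofInjective hf)).1 isSimple_G2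
    · rw [← Nat.card_congr (MonoidHom.ofInjective hf).toEquiv, card_G_two]

end CfsgLib.Rudvalis
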