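import Cfsg.Agent.Rudvalis.Classes
import Cfsg.Agent.Rudvalis.TitsData

/-!
The group fixing a vector is simple of order 17971200.
-/

set_option autoImplicit false
set_option maxRecDepth 100000

open Finset

namespace CfsgLib.Rudvalis

open CfsgLib.RuLattice CfsgLib.CosetEnum Cfsg Cfsg.Spor

/-- The point at a position of the orbit. -/
def orbPt (i : ℕ) : ℕ := act (transWord 2 i) 80

/-- The part of a position. -/
def partOf (i : ℕ) : ℕ := Nat.land (Nat.shiftRight partTable (4 * i)) 15

/-- The checks on the parts. -/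
def partOK (lo : ℕ) : Bool :=
  (List.range 576).all fun j => forceN (576 * lo + j) fun i =>
    forceN (orbPt i) fun y => forceN (partOf i) fun p =>
      let w := (partWords.getD (i / 500) []).getD (i % 500) []
      Nat.blt y NV && Nat.blt p 7 && Nat.beq (posAt 2 y) i && Nat.beq (act w (partReps.getD p 0)) y &&
        w.all fun l => Nat.ble 10 l && Nat.blt l 14

theorem partOK_all : ∀ lo < 4, partOK lo = true := by decide +kernel

theorem part_counts : (List.range 7).map (fun p => ((List.range 2304).filter fun i => Nat.beq (partOf i) p).length)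
    = partSizes ∧ Nat.beq (posAt 2 80) 0 = true ∧ Nat.beq (partOf 0) 0 = true ∧
    partReps.getD 0 0 = 80 ∧ partSizes.getD 0 0 = 1 := by decide +kernel

theorem part_spec {i : ℕ} (hi : i < 2304) : ∃ w : List ℕ, (∀ l ∈ w, 10 ≤ l ∧ l < 14) ∧
    partOf i < 7 ∧ act w (partReps.getD (partOf i) 0) = orbPt i := by
  have := partOK_all (i / 576) (by omega)
  simp only [partOK, forceN_eq, List.all_eq_true, List.mem_range] at this
  have h := this (i % 576) (Nat.mod_lt _ (by norm_num))
  rw [Nat.div_add_mod] at h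
  simp only [Bool.and_eq_true, List.all_eq_true, Nat.blt, Nat.ble_eq, Nat.beq_eq] at h
  exact ⟨_, fun l hl => h.2 l hl, h.1.1.1.2, h.1.2⟩

noncomputable instance : MulAction (G 2) V := MulAction.compHom V (permHom.comp (G 2).subtype)

theorem smul_G (g : G 2) (n : V) : g • n = moved g.1 n := rfl

/-- The orbit. -/
abbrev O2 : Type := MulAction.orbit (G 2) (baseV 2)

theorem orb_index (x : O2) : ∃ i, ∃ hi : i < 2304, orbPt i = x.1.val := by
  obtain ⟨g, hg⟩ := x.2
  have h := ((mem_G_iff (k := 2) (by norm_num) g.1).1 g.2).2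
  rw [imgsG, show 6 - 2 = 4 from rfl, List.range_succ_eq_map, List.map_cons, sift, forceN_eq] at h
  simp only [Bool.and_eq_true, mapAct_eq, Nat.blt, Nat.ble_eq, Nat.beq_eq] at h
  obtain ⟨⟨hi, hl⟩, -⟩ := h
  refine ⟨_, hi, ?_⟩
  rw [← hg]
  exact hl

theorem orbPt_lt {i : ℕ} (hi : i < 2304) : orbPt i < NV := by
  have := partOK_all (i / 576) (by omega)
  simp only [partOK, forceN_eq, List.all_eq_true, List.mem_range] at this
  have h := this (i % 576) (Nat.mod_lt _ (by norm_num))
  rw [Nat.div_add_mod] at h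
  simp only [Bool.and_eq_true, Nat.blt, Nat.ble_eq] at h
  exact h.1.1.1.1

theorem orbPt_mem {i : ℕ} (hi : i < 2304) : (⟨orbPt i, orbPt_lt hi⟩ : V) ∈ MulAction.orbit (G 2) (baseV 2) := by
  refine ⟨⟨_, gword_transWord_mem (k := 2) (by norm_num) hi⟩, Fin.ext ?_⟩
  show (moved (gword E (transWord 2 i)) (baseV 2)).val = _
  rw [moved_word _ (transWord_lt (k := 2) (by norm_num) (show i < levelSize 2 from hi))]
  rfl

/-- A point of the orbit. -/
def orbV (i : Fin 2304) : O2 := ⟨⟨orbPt i.val, orbPt_lt i.2⟩, orbPt_mem i.2⟩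

theorem orbV_bijective : Function.Bijective orbV := by
  refine ⟨fun i j h => ?_, fun x => ?_⟩
  · have e : orbPt i.val = orbPt j.val := congrArg (fun x : O2 => x.1.val) h
    have key : ∀ i : Fin 2304, posAt 2 (orbPt i.val) = i.val := fun i => by
      have := partOK_all (i.val / 576) (by omega)
      simp only [partOK, forceN_eq, List.all_eq_true, List.mem_range] at this
      have h := this (i.val % 576) (Nat.mod_lt _ (by norm_num))
      rw [Nat.div_add_mod] at h
      simp only [Bool.and_eq_true, Nat.beq_eq] at h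
      exact h.1.1.2
    exact Fin.ext (by rw [← key i, e, key j])
  · obtain ⟨i, hi, e⟩ := orb_index x
    exact ⟨⟨i, hi⟩, Subtype.ext (Fin.ext e)⟩

theorem base_in_orbit : ∀ b ∈ basePts.tail, Nat.blt (posAt 2 b) 2304 = true ∧
    Nat.beq (orbPt (posAt 2 b)) b = true := by decide +kernel

instance faithful : FaithfulSMul (G 2) O2 := ⟨fun {g h} e => by
  have key : h⁻¹ * g = (1 : G 2) := by
    refine Subtype.ext (eq_one_of_fixed fun b hb hlt => ?_)
    rcases List.mem_cons.1 hb with rfl | hb'
    · have := gens_fix (k := 2) (by norm_num) (j := 1) (by norm_num) (h⁻¹ * g).2 hlt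
      exact Fin.ext this
    · obtain ⟨h1, h2⟩ := base_in_orbit b hb'
      simp only [Nat.blt, Nat.ble_eq] at h1
      have hx : (h⁻¹ * g) • orbV ⟨posAt 2 b, h1⟩ = orbV ⟨posAt 2 b, h1⟩ := by
        rw [mul_smul, e, inv_smul_smul]
      have hx' := congrArg Subtype.val hx
      have hb2 : (⟨b, hlt⟩ : V) = (orbV ⟨posAt 2 b, h1⟩).1 := Fin.ext (Nat.eq_of_beq_eq_true h2).symm
      rw [hb2]
      exact hx'
  exact (inv_mul_eq_one.1 key).symm⟩

open scoped Pointwise in
theorem preprimitive_G2 : MulAction.IsPreprimitive (G 2) O2 := by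
  classical
  haveI : MulAction.IsPretransitive (G 2) O2 := inferInstance
  let a : O2 := orbV ⟨0, by norm_num⟩
  refine MulAction.IsPreprimitive.of_isTrivialBlock_base a fun {B} ha hB => ?_
  obtain ⟨hcnt, hp0, hq0, hr0, hs0⟩ := part_counts
  have ha80 : a.1 = baseV 2 := Fin.ext (show orbPt 0 = 80 by decide +kernel)
  have hfix : ∀ g : G 2, g • a = a → ∀ e ∈ B, g • e ∈ B := by
    intro g hg e he
    have := hB.smul_eq_of_mem ha (hg.symm ▸ ha : g • a ∈ B)
    rw [← this]
    exact Set.smul_mem_smul_set he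
  have hpart : ∀ i j : Fin 2304, partOf i.val = partOf j.val → orbV i ∈ B → orbV j ∈ B := by
    intro i j hij hi
    obtain ⟨w, hw, hp, he⟩ := part_spec i.2
    obtain ⟨w', hw', -, he'⟩ := part_spec j.2
    have hmem : ∀ w : List ℕ, (∀ l ∈ w, 10 ≤ l ∧ l < 14) → gword E w ∈ G 3 := fun w hw =>
      gword_mem _ _ fun l hl => by
        have := hw l hl
        obtain rfl | rfl | rfl | rfl : l = 10 ∨ l = 11 ∨ l = 12 ∨ l = 13 := by omega
        exacts [E_mem_G (by simp [levelGens]),
          (E_linv (l := 10) (by norm_num)) ▸ inv_mem (E_mem_G (k := 3) (l := 10) (by simp [levelGens])),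
          E_mem_G (by simp [levelGens]),
          (E_linv (l := 12) (by norm_num)) ▸ inv_mem (E_mem_G (k := 3) (l := 12) (by simp [levelGens]))]
    let x : G 2 := ⟨gword E w' * (gword E w)⁻¹,
      G_succ_le (by norm_num) (mul_mem (hmem _ hw') (inv_mem (hmem _ hw)))⟩
    have hxa : x • a = a := by
      refine Subtype.ext ?_
      show moved x.1 a.1 = a.1
      rw [ha80]
      exact Fin.ext (gens_fix (k := 3) (by norm_num) (j := 2) (by norm_num)
        (mul_mem (hmem _ hw') (inv_mem (hmem _ hw))) (basePt_lt 2))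
    have hxi : x • orbV i = orbV j := by
      refine Subtype.ext (Fin.ext ?_)
      show (moved (gword E w' * (gword E w)⁻¹) (orbV i).1).val = orbPt j.val
      have hr : partReps.getD (partOf i.val) 0 < NV := by
        have : ∀ p < 7, partReps.getD p 0 < NV := by decide +kernel
        exact this _ hp
      have e1 : moved (gword E w) ⟨_, hr⟩ = (orbV i).1 :=
        Fin.ext (by rw [moved_word _ fun l hl => by have := hw l hl; omega]; exact he)
      rw [← e1, moved_mul, ← moved_mul (gword E w)⁻¹, inv_mul_cancel, moved_one,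
        moved_word _ fun l hl => by have := hw' l hl; omega]
      show act w' (partReps.getD (partOf i.val) 0) = _
      rw [hij]; exact he'
    rw [← hxi]
    exact hfix x hxa _ hi
  set P : Finset (Fin 7) := univ.filter fun p => ∃ i : Fin 2304, partOf i.val = p.val ∧ orbV i ∈ B
  have hB' : B = orbV '' ↑(univ.filter fun i : Fin 2304 => ∃ p ∈ P, partOf i.val = p.val) := by
    ext x
    obtain ⟨i, rfl⟩ := orbV_bijective.2 x
    rw [orbV_bijective.1.mem_set_image]
    simp only [coe_filter, mem_univ, true_and, Set.mem_setOf_eq, P, mem_filter]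
    refine ⟨fun h => ⟨⟨_, (part_spec i.2).choose_spec.2.1⟩, ⟨i, rfl, h⟩, rfl⟩, ?_⟩
    rintro ⟨p, ⟨j, hj, hjB⟩, hp⟩
    exact hpart j i (hj.trans hp.symm) hjB
  have hcard : B.ncard = ∑ p ∈ P, partSizes.getD p.val 0 := by
    rw [hB', Set.ncard_image_of_injective _ orbV_bijective.1, Set.ncard_coe_finset,
      show (univ.filter fun i : Fin 2304 => ∃ p ∈ P, partOf i.val = p.val) =
        P.biUnion fun p => univ.filter fun i : Fin 2304 => partOf i.val = p.val by ext; simp,
      card_biUnion fun p _ q _ hpq => disjoint_left.2 fun i h1 h2 =>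
        hpq (Fin.ext ((mem_filter.1 h1).2.symm.trans (mem_filter.1 h2).2))]
    refine sum_congr rfl fun p _ => ?_
    rw [← hcnt, List.getD_eq_getElem _ _ (by simp), List.getElem_map, List.getElem_range,
      ← List.toFinset_card_of_nodup (List.nodup_range.filter _)]
    refine card_bij (fun i _ => i.val) (fun i hi => ?_) (fun x _ y _ e => Fin.ext e) fun n hn => ?_
    · simp only [List.mem_toFinset, List.mem_filter, List.mem_range]
      exact ⟨i.2, Nat.beq_eq.mpr (mem_filter.1 hi).2⟩
    · simp only [List.mem_toFinset, List.mem_filter, List.mem_range] at hn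
      exact ⟨⟨n, hn.1⟩, mem_filter.2 ⟨mem_univ _, Nat.eq_of_beq_eq_true hn.2⟩, rfl⟩
  have h0 : (0 : Fin 7) ∈ P := by
    simp only [P, mem_filter, mem_univ, true_and]
    exact ⟨⟨0, by norm_num⟩, Nat.eq_of_beq_eq_true hq0, ha⟩
  have hdvd := hB.ncard_dvd_card ⟨a, ha⟩
  rw [← Nat.card_congr (Equiv.ofBijective _ orbV_bijective), Nat.card_fin, hcard] at hdvd
  have key : ∀ P : Finset (Fin 7), 0 ∈ P → (∑ p ∈ P, partSizes.getD p.val 0) ∣ 2304 → P = {0} ∨ P = univ := by
    decide +kernel
  rcases key P h0 hdvd with hP | hP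
  · left
    have h1 : B.ncard ≤ 1 := by
      rw [hcard, hP, sum_singleton]
      exact le_of_eq hs0
    exact Set.ncard_le_one_iff_subsingleton.1 h1
  · right
    refine Set.eq_univ_of_forall fun x => ?_
    obtain ⟨i, rfl⟩ := orbV_bijective.2 x
    have : (⟨partOf i.val, (part_spec i.2).choose_spec.2.1⟩ : Fin 7) ∈ P := hP ▸ mem_univ _
    simp only [P, mem_filter, mem_univ, true_and] at this
    obtain ⟨j, hj, hjB⟩ := this
    exact hpart j i hj hjB

/-- An element of order sixteen. -/
def sixteenWord : List ℕ := [6, 9]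

/-- Conjugating words whose involutions multiply to each generator. -/
def invWords : ℕ → List (List ℕ)
  | 6 => [[6, 6, 9, 9, 7, 8, 6, 6], [9, 7, 7, 7], [6, 6, 9, 9, 7, 8, 6]]
  | _ => [[8, 7, 7, 8, 6, 8, 8], [7, 8, 8, 8], [9, 9, 7, 9, 6, 6, 8]]

/-- A conjugate of the involution. -/
def invConj (w : List ℕ) : List ℕ := w ++ (List.replicate 8 sixteenWord).flatten ++ winv w

theorem inv_checks : (levelGens 2).all (fun l =>
      (invWords l).all (fun w => w.all fun x => Nat.ble 6 x && Nat.blt x 10) &&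
      basePts.all fun b => Nat.beq (act ((invWords l).map invConj).flatten b) (img l b)) = true ∧
    sixteenWord.all (fun x => Nat.ble 6 x && Nat.blt x 10) = true ∧
    basePts.all (fun b => Nat.beq (act (List.replicate 16 sixteenWord).flatten b) b) = true := by
  decide +kernel

theorem mem_G2_of {w : List ℕ} (hw : ∀ l ∈ w, 6 ≤ l ∧ l < 10) : gword E w ∈ G 2 :=
  gword_mem _ _ fun l hl => by
    have := hw l hl
    obtain rfl | rfl | rfl | rfl : l = 6 ∨ l = 7 ∨ l = 8 ∨ l = 9 := by omega
    exacts [E_mem_G (by simp [levelGens]),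
      (E_linv (l := 6) (by norm_num)) ▸ inv_mem (E_mem_G (k := 2) (l := 6) (by simp [levelGens])),
      E_mem_G (by simp [levelGens]),
      (E_linv (l := 8) (by norm_num)) ▸ inv_mem (E_mem_G (k := 2) (l := 8) (by simp [levelGens]))]

theorem gword_flatten : ∀ L : List (List ℕ), gword E L.flatten = (L.map (gword E)).prod
  | [] => rfl
  | w :: L => by rw [List.flatten_cons, gword_append, gword_flatten L, List.map_cons, List.prod_cons]

theorem eq_of_words {g h : fourRu} (e : ∀ b ∈ basePts, ∀ hb : b < NV,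
    moved g ⟨b, hb⟩ = moved h ⟨b, hb⟩) : g = h := by
  refine (inv_mul_eq_one.1 (eq_one_of_fixed (g := h⁻¹ * g) fun b hb hlt => ?_)).symm
  rw [moved_mul, e b hb hlt, ← moved_mul, inv_mul_cancel, moved_one]

theorem isSimple_G2 : IsSimpleGroup (G 2) := by
  haveI : Finite fourRu := Finite.of_injective _ permHom_injective
  haveI : Nontrivial (G 2) := Finite.one_lt_card_iff_nontrivial.1 (by rw [card_G_two]; norm_num)
  haveI := preprimitive_G2
  refine ⟨fun N hN => ?_⟩
  by_cases hfix : MulAction.fixedPoints N O2 = Set.univ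
  · left
    rw [Subgroup.eq_bot_iff_forall]
    intro x hx
    refine eq_of_smul_eq_smul fun c : O2 => ?_
    have hc : c ∈ MulAction.fixedPoints N O2 := hfix ▸ Set.mem_univ c
    rw [one_smul]
    exact hc ⟨x, hx⟩
  · right
    haveI := MulAction.IsQuasiPreprimitive.isPretransitive_of_normal (N := N) hfix
    have h256 : 256 ∣ Nat.card N := by
      refine dvd_trans (by norm_num : 256 ∣ 2304) ?_
      rw [← Nat.card_fin 2304, Nat.card_congr (Equiv.ofBijective _ orbV_bijective),
        ← Nat.card_congr ((Equiv.setCongr (MulAction.orbit_eq_univ N (orbV ⟨0, by norm_num⟩))).trans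
          (Equiv.Set.univ _))]
      rw [Nat.card_congr (MulAction.orbitEquivQuotientStabilizer N (orbV ⟨0, by norm_num⟩))]
      exact Subgroup.card_quotient_dvd_card _
    have hindex : ¬ 16 ∣ N.index := by
      intro h
      have : 256 * 16 ∣ Nat.card (G 2) := N.card_mul_index ▸ Nat.mul_dvd_mul h256 h
      rw [card_G_two] at this
      norm_num at this
    obtain ⟨hinv, hy, hy16⟩ := inv_checks
    simp only [List.all_eq_true, Bool.and_eq_true, Nat.blt, Nat.ble_eq] at hinv hy hy16
    have hy22 : ∀ k, ∀ x ∈ (List.replicate k sixteenWord).flatten, x < 22 := fun k x hx => by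
      obtain ⟨l, hl, hxl⟩ := List.mem_flatten.1 hx
      have := hy x (List.eq_of_mem_replicate hl ▸ hxl)
      omega
    let y : G 2 := ⟨gword E sixteenWord, mem_G2_of fun x hx => ⟨(hy x hx).1, (hy x hx).2⟩⟩
    have hy16' : y ^ 16 = 1 := Subtype.ext (eq_one_of_fixed fun b hb hlt => Fin.ext (by
      rw [show ((y ^ 16 : G 2) : fourRu) = gword E (List.replicate 16 sixteenWord).flatten by
        rw [gword_flatten, List.map_replicate, List.prod_replicate]; rfl, moved_word _ (hy22 16)]
      exact Nat.eq_of_beq_eq_true (hy16 b hb)))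
    have hy8 : y ^ 8 ∈ N := by
      rw [← QuotientGroup.eq_one_iff, QuotientGroup.mk_pow]
      have h1 : orderOf (QuotientGroup.mk y : G 2 ⧸ N) ∣ 16 :=
        orderOf_dvd_of_pow_eq_one (by rw [← QuotientGroup.mk_pow, hy16', QuotientGroup.mk_one])
      have h2 : orderOf (QuotientGroup.mk y : G 2 ⧸ N) ∣ N.index := orderOf_dvd_natCard _
      refine orderOf_dvd_iff_pow_eq_one.1 ?_
      obtain ⟨k, hk, hk'⟩ := (Nat.dvd_prime_pow Nat.prime_two).1 (show _ ∣ 2 ^ 4 from h1)
      rcases Nat.lt_or_ge k 4 with h | h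
      · rw [hk']; exact Nat.pow_dvd_pow 2 (show k ≤ 3 by omega)
      · exact absurd (by rw [hk', show k = 4 by omega] at h2; exact h2) hindex
    rw [eq_top_iff]
    intro x _
    have hx : x.1 ∈ N.map (G 2).subtype := by
      refine (Subgroup.closure_le _).2 ?_ x.2
      rintro _ ⟨l, hl, rfl⟩
      obtain ⟨hw, hprod⟩ := hinv l hl
      have hw22 : ∀ x ∈ ((invWords l).map invConj).flatten, x < 22 := by
        intro x hx
        obtain ⟨v, hv, hxv⟩ := List.mem_flatten.1 hx
        obtain ⟨w, hwm, rfl⟩ := List.mem_map.1 hv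
        have hw' : ∀ l ∈ w, l < 22 := fun l hl' => by have := hw w hwm l hl'; omega
        simp only [invConj, List.mem_append] at hxv
        rcases hxv with (h | h) | h
        exacts [hw' x h, hy22 8 x h, winv_lt hw' x h]
      have e : E l = gword E ((invWords l).map invConj).flatten := eq_of_words fun b hb hlt => Fin.ext (by
        rw [moved_word _ hw22, real_E l (gens_lt hl).1]
        exact (Nat.eq_of_beq_eq_true (hprod b hb)).symm)
      rw [e, gword_flatten]
      refine list_prod_mem fun g hg => ?_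
      rw [List.map_map] at hg
      obtain ⟨w, hwm, rfl⟩ := List.mem_map.1 hg
      have hwG : gword E w ∈ G 2 := mem_G2_of fun x hx => ⟨(hw w hwm x hx).1, (hw w hwm x hx).2⟩
      refine ⟨(⟨gword E w, hwG⟩ : G 2) * y ^ 8 * (⟨gword E w, hwG⟩ : G 2)⁻¹,
        hN.conj_mem _ hy8 _, ?_⟩
      simp only [Function.comp, invConj, gword_append, gword_flatten, List.map_replicate,
        List.prod_replicate, gword_winv w fun x hx => by have := hw w hwm x hx; omega]
      rfl
    obtain ⟨z, hz, e⟩ := hx
    rwa [Subtype.ext e] at hz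

end CfsgLib.Rudvalis
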